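import Cfsg.Agent.EvenLocal.Inversion.Witness
import Cfsg.Agent.EvenLocal.Inversion.ZJMembers
import Cfsg.Agent.Stability.Complement

/-!
Inversion of `p`-elements is controlled by `N(Z(J(P)))`: if no non-trivial `p`-element of that
normalizer is inverted inside it, then none is inverted in `G` (`p` odd, no stability assumed).
-/

set_option autoImplicit false
set_option linter.style.haveILetI false

namespace Cfsg.Agent.EvenLocal

open Subgroup Fusion
open scoped commutatorElement

universe u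

variable {p : ℕ}

/-- No non-trivial `p`-element of `H` is inverted by an element of `H`. -/
def InvFreeOn (p : ℕ) {G : Type*} [Group G] (H : Subgroup G) : Prop :=
  ∀ g ∈ H, ∀ x ∈ H, (∃ k : ℕ, x ^ p ^ k = 1) → g * x * g⁻¹ = x⁻¹ → x = 1

theorem InvFreeOn.mono {G : Type*} [Group G] {H K : Subgroup G} (h : InvFreeOn p K) (hle : H ≤ K) :
    InvFreeOn p H := fun g hg x hx => h g (hle hg) x (hle hx)

theorem InvFreeOn.of_map {G H : Type*} [Group G] [Group H] {f : G →* H} (hf : Function.Injective f)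
    {K : Subgroup G} (h : InvFreeOn p (K.map f)) : InvFreeOn p K := by
  rintro g hg x hx ⟨k, hk⟩ he
  refine hf ?_
  rw [map_one]
  refine h _ ⟨g, hg, rfl⟩ _ ⟨x, hx, rfl⟩ ⟨k, by rw [← map_pow, hk, map_one]⟩ ?_
  rw [← map_inv, ← map_mul, ← map_mul, he, map_inv]

variable [hp : Fact p.Prime]

theorem InvFreeOn.map {G : Type u} [Group G] [Finite G] {H : Type u} [Group H] (hp2 : p ≠ 2)
    (f : G →* H) {K : Subgroup G} (h : InvFreeOn p K) : InvFreeOn p (K.map f) := by
  rintro g' hg' x' hx' ⟨k, hk⟩ he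
  by_contra hne
  obtain ⟨s, y, -, ⟨j, hj⟩, hsy, hy⟩ := exists_inverted_of_map hp2 (f.subgroupMap K)
    (f.subgroupMap_surjective K) (a := ⟨g', hg'⟩) (b := ⟨x', hx'⟩)
    (by
      obtain ⟨j, -, hj⟩ := (Nat.dvd_prime_pow hp.out).1 (orderOf_dvd_of_pow_eq_one
        (show (⟨x', hx'⟩ : ↥(K.map f)) ^ p ^ k = 1 from Subtype.ext hk))
      exact ⟨j, hj⟩)
    (fun e => hne (congrArg Subtype.val e)) (Subtype.ext he)
  refine hy ?_
  rw [show y = 1 from Subtype.ext (h s s.2 y y.2
    ⟨j, by rw [← hj, ← orderOf_coe]; exact pow_orderOf_eq_one _⟩ (congrArg Subtype.val hsy)),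
    map_one]

/-- In a group without inversions of `p`-elements, `2`-elements centralize the `p`-subgroups they
normalize. -/
theorem InvFreeOn.mem_centralizer {G : Type u} [Group G] [Finite G]
    (h : InvFreeOn p (⊤ : Subgroup G)) {s : G} (hs : ∃ k, orderOf s = 2 ^ k) {R : Subgroup G}
    (hR : IsPGroup p R) (hsR : s ∈ normalizer (R : Set G)) : s ∈ centralizer (R : Set G) := by
  by_contra hc
  obtain ⟨s', y, -, hy, hy1, he⟩ := exists_inverted_of_normalizes hs hsR hc
  obtain ⟨j, hj⟩ := hR ⟨y, hy⟩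
  exact hy1 (h s' trivial y trivial ⟨j, congrArg Subtype.val hj⟩ he)

theorem centerThompsonAOf_cj {G : Type*} [Group G] (g : G) (P : Subgroup G) :
    cj g (Cfsg.centerThompsonAOf P) = Cfsg.centerThompsonAOf (cj g P) :=
  Modules.map_centerThompsonAOf (MulAut.conj g).injective P

theorem normalizer_le_centerThompsonAOf {G : Type*} [Group G] (P : Subgroup G) :
    normalizer (P : Set G) ≤ normalizer (Cfsg.centerThompsonAOf P : Set G) := fun g hg => by
  rw [← cj_eq_iff_mem_normalizer] at hg ⊢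
  rw [centerThompsonAOf_cj, hg]

/-- **Inversion of `p`-elements is controlled by `N(Z(J(P)))`.** -/
theorem invFree_of_normalizer (hp2 : p ≠ 2) {G : Type u} [Group G] [Finite G] (P : Sylow p G)
    (hN : InvFreeOn p (normalizer (Cfsg.centerThompsonAOf (P : Subgroup G) : Set G))) :
    InvFreeOn p (⊤ : Subgroup G) := by
  induction hn : Nat.card G using Nat.strong_induction_on generalizing G with
  | _ n ih =>
  subst hn
  by_contra hbad
  -- the hypothesis for every Sylow subgroup
  have hconj : ∀ Q : Sylow p G,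
      InvFreeOn p (normalizer (Cfsg.centerThompsonAOf (Q : Subgroup G) : Set G)) := by
    intro Q
    obtain ⟨g, hg⟩ := exists_cj_sylow P Q
    rw [← hg, ← centerThompsonAOf_cj, ← cj_normalizer]
    exact hN.map hp2 _
  -- the theorem for proper subgroups
  have hsub : ∀ H S : Subgroup G, H ≠ ⊤ → S ≤ H → IsPGroup p S → ¬ p ∣ S.relIndex H →
      InvFreeOn p (H ⊓ normalizer (Cfsg.centerThompsonAOf S : Set G)) → InvFreeOn p H := by
    intro H S hH hSH hSp hS hHS
    have hlt : Nat.card H < Nat.card G := lt_of_le_of_ne H.card_le_card_group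
      fun e => hH (H.eq_top_of_card_eq e)
    let Q : Sylow p H := (hSp.comap_subtype (K := H)).toSylow hS
    have hQ : (Q : Subgroup H).map H.subtype = S := map_subgroupOf_eq_of_le hSH
    have h1 := ih _ hlt Q (InvFreeOn.of_map H.subtype_injective (hHS.mono (le_inf (map_subtype_le _)
      ((le_normalizer_map H.subtype).trans (by
        rw [Modules.map_centerThompsonAOf H.subtype_injective, hQ]))))) rfl
    have h2 := h1.map hp2 H.subtype
    rwa [← MonoidHom.range_eq_map, Subgroup.range_subtype] at h2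
  -- proper subgroups containing a Sylow subgroup
  have descend : ∀ (H : Subgroup G) (Q : Sylow p G), H ≠ ⊤ → (Q : Subgroup G) ≤ H →
      InvFreeOn p H := fun H Q hH hQH =>
    hsub H Q hH hQH Q.2 (fun hd => Q.not_dvd_index (hd.trans (relIndex_dvd_index_of_le hQH)))
      ((hconj Q).mono inf_le_right)
  obtain ⟨g₀, x₀, k₀, hk₀, he₀, hx₀⟩ : ∃ g x : G, ∃ k : ℕ, x ^ p ^ k = 1 ∧
      g * x * g⁻¹ = x⁻¹ ∧ x ≠ 1 := by
    simp only [InvFreeOn, mem_top, forall_const, forall_exists_index, not_forall] at hbad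
    obtain ⟨g, x, k, hk, he, hx⟩ := hbad
    exact ⟨g, x, k, hk, he, hx⟩
  -- `O_p(G) ≠ 1`
  have hcore : Cfsg.pCore p G ≠ ⊥ := by
    obtain ⟨⟨X, Q⟩, ⟨hXp, hXne, hXbad⟩, hmax⟩ := Set.exists_max_image
      {q : Subgroup G × Sylow p G | IsPGroup p q.1 ∧ q.1 ≠ ⊥ ∧
        ¬ InvFreeOn p (normalizer (q.1 : Set G))}
      (fun q => Nat.card ↥((q.2 : Subgroup G) ⊓ normalizer (q.1 : Set G))) (Set.toFinite _) (by
        refine ⟨(zpowers x₀, P), ?_, fun h => hx₀ (zpowers_eq_bot.1 h), fun h => hx₀ ?_⟩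
        · rintro ⟨w, hw⟩
          obtain ⟨j, rfl⟩ := mem_zpowers_iff.1 hw
          refine ⟨k₀, Subtype.ext ?_⟩
          show (x₀ ^ j) ^ p ^ k₀ = 1
          rw [← zpow_natCast (x₀ ^ j), ← zpow_mul, mul_comm, zpow_mul, zpow_natCast, hk₀, one_zpow]
        · refine h g₀ ?_ x₀ (le_normalizer (mem_zpowers _)) ⟨k₀, hk₀⟩ he₀
          rw [← cj_eq_iff_mem_normalizer, cj, MonoidHom.map_zpowers]
          show zpowers (g₀ * x₀ * g₀⁻¹) = zpowers x₀
          rw [he₀, zpowers_inv])
    dsimp only at hXp hXne hXbad hmax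
    set N := normalizer (X : Set G) with hNdef
    obtain ⟨T, hT1, hT2⟩ := exists_sylow_inf_relIndex (U := (Q : Subgroup G) ⊓ N) (N := N)
      Q.2.to_inf_left inf_le_right
    have hXT : X ≤ (T : Subgroup G) ⊓ N := by
      let TT : Sylow p N := (T.2.to_inf_left (K := N)).comap_subtype (K := N) |>.toSylow hT2
      have hXn : (X.subgroupOf N).Normal := normal_subgroupOf_of_le_normalizer le_rfl
      have h1 : X.subgroupOf N ≤ (TT : Subgroup N) :=
        (Cores.le_pCore hXn (hXp.comap_subtype (K := N))).trans (Cores.pCore_le_sylow TT)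
      intro y hy
      exact h1 (show (⟨y, le_normalizer hy⟩ : N) ∈ X.subgroupOf N from hy)
    have hmax' : ∀ (Y : Subgroup G) (R : Sylow p G), IsPGroup p Y → Y ≠ ⊥ →
        ¬ InvFreeOn p (normalizer (Y : Set G)) →
        Nat.card ↥((R : Subgroup G) ⊓ normalizer (Y : Set G)) ≤ Nat.card ↥((T : Subgroup G) ⊓ N) :=
      fun Y R h1 h2 h3 => (hmax (Y, R) ⟨h1, h2, h3⟩).trans
        (card_le_of_le (le_inf hT1 inf_le_right))
    rcases eq_or_ne ((T : Subgroup G) ⊓ N) T with hTN | hTN
    · have hNtop : N = ⊤ := by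
        by_contra h
        exact hXbad (descend N T h (inf_eq_left.1 hTN))
      haveI : X.Normal := normalizer_eq_top_iff.1 hNtop
      exact fun hb => hXne (le_bot_iff.1 (hb ▸ Cores.le_pCore inferInstance hXp))
    exfalso
    set S := (T : Subgroup G) ⊓ N with hS
    have hgrow := lt_normalizer_inf T.2 (lt_of_le_of_ne inf_le_left hTN)
    have hSp : IsPGroup p S := T.2.to_inf_left
    have hSne : S ≠ ⊥ := fun h => hXne (le_bot_iff.1 (h ▸ hXT))
    have hW : InvFreeOn p (normalizer (Cfsg.centerThompsonAOf S : Set G)) := by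
      by_contra h
      refine absurd (hmax' _ T (hSp.to_le (Modules.centerThompsonAOf_le S))
        (Modules.centerThompsonAOf_ne_bot hSp hSne) h) (not_le.2 (lt_of_lt_of_le (card_lt_card hgrow)
          (card_le_of_le (inf_le_inf_left _ (normalizer_le_centerThompsonAOf S)))))
    refine hXbad (hsub N S (fun h => hTN ?_) inf_le_right hSp hT2 (hW.mono inf_le_right))
    rw [hS, h, inf_top_eq]
  -- `O_{p'}(G) = 1`
  have hprime : Cfsg.pPrimeCore p G = ⊥ := by
    by_contra hM
    set M := Cfsg.pPrimeCore p G with hMdef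
    have hMc : (Nat.card M).Coprime p := Cores.pPrimeCore_coprime
    set π := QuotientGroup.mk' M with hπ
    have hsurj : Function.Surjective π := QuotientGroup.mk'_surjective M
    have hlt : Nat.card (G ⧸ M) < Nat.card G := by
      have h1 := M.card_mul_index
      rw [index_eq_card] at h1
      have h2 : 1 < Nat.card M := Finite.one_lt_card_iff_nontrivial.mpr
        ((nontrivial_iff_ne_bot M).mpr hM)
      have h3 : 0 < Nat.card (G ⧸ M) := Nat.card_pos
      nlinarith
    have hker : (P : Subgroup G) ⊓ π.ker = ⊥ := by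
      rw [QuotientGroup.ker_mk']; exact PSolv.sylow_inf_eq_bot hMc P.2
    have hq := ih _ hlt (P.mapSurjective hsurj) ((hN.map hp2 π).mono (by
      intro q hq
      obtain ⟨g, rfl⟩ := hsurj q
      have hmap : (Cfsg.centerThompsonAOf (P : Subgroup G)).map π =
          Cfsg.centerThompsonAOf ((P : Subgroup G).map π) :=
        (Stability.centerThompsonAFunctor p).W_map π (P : Subgroup G) hker
      rw [Sylow.coe_mapSurjective, ← hmap] at hq
      obtain ⟨y, hy, m, hm, rfl⟩ :=
        PSolv.exists_mul_mem_normalizer M hMc (P.2.to_le (Modules.centerThompsonAOf_le _)) hq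
      refine ⟨m, hm, ?_⟩
      rw [map_mul, (QuotientGroup.eq_one_iff y).mpr hy |> fun h => (show π y = 1 from h), one_mul])) rfl
    have h1 := hq (π g₀) trivial (π x₀) trivial ⟨k₀, by rw [← map_pow, hk₀, map_one]⟩
      (by rw [← map_inv, ← map_mul, ← map_mul, he₀, map_inv])
    refine hx₀ (orderOf_eq_one_iff.1 (Nat.eq_one_of_dvd_coprimes (hMc.symm.pow_left k₀)
      (orderOf_dvd_of_pow_eq_one hk₀) (orderOf_dvd_natCard M ((QuotientGroup.eq_one_iff x₀).1 h1))))
  set B := Cfsg.pCore p G with hBdef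
  have hBp : IsPGroup p B := Cores.pCore_isPGroup
  set W := Cfsg.centerThompsonAOf (P : Subgroup G) with hWdef
  have hWn : ¬ W.Normal := fun h => hbad (by
    haveI := h; rwa [normalizer_eq_top (H := W)] at hN)
  -- `G / B` has no inversions
  set π := QuotientGroup.mk' B with hπ
  have hsurj : Function.Surjective π := QuotientGroup.mk'_surjective B
  have hquot : InvFreeOn p (⊤ : Subgroup (G ⧸ B)) := by
    have hlt : Nat.card (G ⧸ B) < Nat.card G := by
      have h1 := B.card_mul_index
      rw [index_eq_card] at h1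
      have h2 : 1 < Nat.card B := Finite.one_lt_card_iff_nontrivial.mpr
        ((nontrivial_iff_ne_bot B).mpr hcore)
      have h3 : 0 < Nat.card (G ⧸ B) := Nat.card_pos
      nlinarith
    have hPB : ¬ (P : Subgroup G) ≤ B := fun h => hWn (by
      have e : (P : Subgroup G) = B := le_antisymm h (Cores.pCore_le_sylow P)
      haveI : (P : Subgroup G).Normal := e ▸ inferInstance
      exact (Stability.centerThompsonAFunctor p).normal_of_normal (P : Subgroup G))
    set Pb := P.mapSurjective hsurj with hPb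
    have hPbne : (Pb : Subgroup (G ⧸ B)) ≠ ⊥ := fun h => hPB (by
      rwa [hPb, Sylow.coe_mapSurjective, Subgroup.map_eq_bot_iff, QuotientGroup.ker_mk'] at h)
    set Wb := Cfsg.centerThompsonAOf (Pb : Subgroup (G ⧸ B)) with hWb
    have hne : (normalizer (Wb : Set (G ⧸ B))).comap π ≠ ⊤ := by
      intro h
      haveI : Wb.Normal := normalizer_eq_top_iff.1 (by
        rw [← map_comap_eq_self_of_surjective hsurj (normalizer (Wb : Set (G ⧸ B))), h,
          map_top_of_surjective π hsurj])
      refine Modules.centerThompsonAOf_ne_bot Pb.2 hPbne (le_bot_iff.1 ?_)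
      exact (Cores.le_pCore ‹_› (Pb.2.to_le (Modules.centerThompsonAOf_le _))).trans
        Cores.pCore_quotient_pCore_eq_bot.le
    have h1 := (descend _ P hne (map_le_iff_le_comap.1 (by
      rw [← Sylow.coe_mapSurjective hsurj P]
      exact le_normalizer.trans (normalizer_le_centerThompsonAOf _)))).map hp2 π
    rw [map_comap_eq_self_of_surjective hsurj] at h1
    exact ih _ hlt Pb h1 rfl
  have hinB : ∀ (g x : G) (k : ℕ), x ^ p ^ k = 1 → g * x * g⁻¹ = x⁻¹ → x ∈ B := fun g x k hk he =>
    (QuotientGroup.eq_one_iff x).1 (hquot (π g) trivial (π x) trivial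
      ⟨k, by rw [← map_pow, hk, map_one]⟩ (by rw [← map_inv, ← map_mul, ← map_mul, he, map_inv]))
  -- `C(B) ≤ B`
  have hCB : centralizer (B : Set G) ≤ B := by
    set C := centralizer (B : Set G) with hC
    set T₁ := (P : Subgroup G) ⊓ C with hT₁
    have hsylC : ¬ p ∣ ((P : Subgroup G).subgroupOf C).index := fun hd =>
      P.not_dvd_index (hd.trans (PSolv.relIndex_dvd_index_of_normal_right (P : Subgroup G) C))
    let TC : Sylow p C := (P.2.comap_subtype (K := C)).toSylow hsylC
    have hfr : C ⊔ normalizer (T₁ : Set G) = ⊤ := by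
      have h := TC.normalizer_sup_eq_top
      rw [show (TC : Subgroup C).map C.subtype = T₁ from subgroupOf_map_subtype _ _] at h
      rwa [sup_comm]
    have hPT : (P : Subgroup G) ≤ normalizer (T₁ : Set G) :=
      Modules.normalizes_inf le_normalizer le_normalizer_of_normal
    have hT₁n : T₁.Normal := by
      refine normalizer_eq_top_iff.1 (by_contra fun hne => hx₀ ?_)
      obtain ⟨c, hc, m, hm, hcm⟩ := mem_sup_of_normal_left.1 (hfr.ge (mem_top g₀))
      have hxB := hinB g₀ x₀ k₀ hk₀ he₀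
      have h1 : m * x₀ * m⁻¹ ∈ B := (inferInstance : B.Normal).conj_mem _ hxB m
      refine descend _ P hne hPT m hm x₀ (hPT (Cores.pCore_le_sylow P hxB)) ⟨k₀, hk₀⟩ ?_
      rw [← he₀, ← hcm, show c * m * x₀ * (c * m)⁻¹ = c * (m * x₀ * m⁻¹) * c⁻¹ by group,
        ← mem_centralizer_iff.1 hc _ h1, mul_inv_cancel_right]
    have hT₁B : T₁ ≤ B := Cores.le_pCore hT₁n P.2.to_inf_left
    have := PSolv.eq_top_of_central_coprime_index (p := p) (G := ↥C) (B.subgroupOf C)
      (fun z hz => mem_center_iff.mpr fun w => Subtype.ext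
        (mem_centralizer_iff.mp w.2 z hz).symm)
      hBp.comap_subtype ?_ ?_
    · exact subgroupOf_eq_top.mp this
    · rw [Cores.coprime_iff_not_dvd_prime hp.out]
      refine fun hd => hsylC (hd.trans (index_dvd_of_le ?_))
      intro z hz
      exact hT₁B ⟨hz, z.2⟩
    · have h1 := Cores.map_subtype_pPrimeCore_le (p := p) (N := C)
      rwa [hprime, le_bot_iff, map_eq_bot_iff_of_injective _ (subtype_injective _)] at h1
  have hWP : W ≤ (P : Subgroup G) := Modules.centerThompsonAOf_le _
  have hWs : W = sInf (Modules.maxAbIn (P : Subgroup G)) := centerThompsonAOf_eq_sInf _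
  set U := normalClosure (W : Set G) with hU
  have hWU : W ≤ U := subset_normalClosure
  -- a quadratic element in a member of `A(P)` not centralizing `U`
  obtain ⟨A, hA, a, haA, hAU, B1, hB1n, hB1p, hq, hna⟩ : ∃ A ∈ Modules.maxAbIn (P : Subgroup G),
      ∃ a ∈ A, ¬ A ≤ centralizer (U : Set G) ∧ ∃ (B1 : Subgroup G) (_ : B1.Normal),
        IsPGroup p B1 ∧ (∀ β ∈ B1, ⁅⁅β, a⁆, a⁆ = 1) ∧ a ∉ H4.stabCore p B1 := by
    by_cases hUB : U ≤ B
    · by_contra hcon
      refine hWn ?_
      have hWB : W ≤ B := hWU.trans hUB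
      have h := centerFamily_inf_normal_of_members hp2 P (Fusion.sc_self _)
        (thompsonFamily_ab (P : Subgroup G)) (fun B1 hB1n hB1p hle A hA a haA hq => by
          by_contra hna
          refine hcon ⟨A, hA, a, haA, fun hAC => hna ?_, B1, hB1n, hB1p, hq, hna⟩
          rw [← hWs] at hle
          exact H4.centralizer_le_stabCore B1 (centralizer_le hle (hAC haA)))
        B inferInstance hBp
      rwa [← hWs, inf_eq_left.2 hWB] at h
    · obtain ⟨z, hz, hzB⟩ : ∃ z ∈ W, z ∉ B := SetLike.not_le_iff_exists.1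
        fun h => hUB (normalClosure_le_normal h)
      obtain ⟨A, hA⟩ := Modules.maxAbIn_nonempty (P : Subgroup G)
      have hzA := Modules.centerThompsonAOf_le_of_mem hA hz
      refine ⟨A, hA, z, hzA, fun hAC => hUB ?_, B, inferInstance, hBp, fun β hβ => ?_, fun h => ?_⟩
      · refine Cores.le_pCore inferInstance ?_
        have hWC : W ≤ centralizer (U : Set G) :=
          (Modules.centerThompsonAOf_le_of_mem hA).trans hAC
        have hcomm : ∀ u ∈ U, ∀ v ∈ U, u * v = v * u := by
          intro u hu v hv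
          have h1 : U ≤ centralizer (U : Set G) := normalClosure_le_normal hWC
          exact mem_centralizer_iff.1 (h1 hv) u hu
        intro u
        have key : ∀ y ∈ U, ∃ k : ℕ, y ^ p ^ k = 1 := by
          intro y hy
          induction hy using closure_induction with
          | mem y hy =>
            obtain ⟨w, hw, hc⟩ := Group.mem_conjugatesOfSet_iff.1 hy
            obtain ⟨g, rfl⟩ := isConj_iff.1 hc
            obtain ⟨k, hk⟩ := P.2 ⟨w, hWP hw⟩
            exact ⟨k, by rw [conj_pow, show w ^ p ^ k = 1 from congrArg Subtype.val hk]; group⟩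
          | one => exact ⟨0, one_pow _⟩
          | mul y y' hy hy' ih1 ih2 =>
            obtain ⟨k, hk⟩ := ih1
            obtain ⟨l, hl⟩ := ih2
            refine ⟨k + l, ?_⟩
            rw [(show Commute y y' from hcomm y hy y' hy').mul_pow, pow_add, pow_mul, hk, one_pow,
              one_mul, mul_comm, pow_mul, hl, one_pow]
          | inv y hy ih1 =>
            obtain ⟨k, hk⟩ := ih1
            exact ⟨k, by rw [inv_pow, hk, inv_one]⟩
        obtain ⟨k, hk⟩ := key u u.2
        exact ⟨k, Subtype.ext hk⟩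
      · have h1 : ⁅β, z⁆ ∈ W := W.mul_mem
          ((mem_normalizer_iff.mp (normalizer_le_centerThompsonAOf _
            (le_normalizer (Cores.pCore_le_sylow P hβ))) z).mp hz) (W.inv_mem hz)
        exact commutatorElement_eq_one_iff_mul_comm.mpr
          (Modules.comm_iff.mp (Modules.comm_mono (Modules.centerThompsonAOf_le_of_mem hA) hA.2.1)
            _ h1 z hz)
      · refine hzB ((Cores.le_pCore (H4.stabCore_normal B) fun g => ?_) h)
        obtain ⟨n, hn⟩ := H4.exists_pow_mem_centralizer (p := p) g.2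
        obtain ⟨m, hm⟩ := hBp ⟨_, hCB hn⟩
        refine ⟨n + m, Subtype.ext ?_⟩
        rw [SubgroupClass.coe_pow, pow_add, pow_mul]
        exact congrArg Subtype.val hm
  haveI := hB1n
  have hAp : IsPGroup p A := P.2.to_le hA.1
  obtain ⟨e, he⟩ := hAp ⟨a, haA⟩
  have hap : a ^ p ^ e = 1 := congrArg Subtype.val he
  obtain ⟨R, s, hRp, haR, hsR, hs2, hsB⟩ := exists_normalized_inverter hp2 hB1p hap hq hna
  have hB1B : B1 ≤ B := Cores.le_pCore hB1n hB1p
  have haB : a ∉ B := by
    intro h
    refine hna (H4.le_stabCore (inferInstance : B.Normal) (fun g hg => ?_) h)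
    obtain ⟨j, hj⟩ := hBp ⟨g, hg⟩
    exact ⟨j, by rw [show g ^ p ^ j = 1 from congrArg Subtype.val hj]; exact one_mem _⟩
  -- the centralizer of `a` modulo `B`
  set M0 := (centralizer ({π a} : Set (G ⧸ B))).comap π with hM0
  have hAM0 : A ≤ M0 := by
    intro y hy
    refine mem_centralizer_iff.2 fun w hw => ?_
    rw [Set.mem_singleton_iff] at hw
    subst hw
    rw [← map_mul, ← map_mul, Modules.comm_iff.1 hA.2.1 a haA y hy]
  have hM0ne : M0 ≠ ⊤ := by
    intro h
    refine haB ((QuotientGroup.eq_one_iff a).1 ?_)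
    have hz : ∀ q : G ⧸ B, q ∈ centralizer ({π a} : Set (G ⧸ B)) := fun q => by
      obtain ⟨g, rfl⟩ := hsurj q
      exact (show g ∈ M0 from h ▸ mem_top g)
    have hn : (zpowers (π a)).Normal := normalizer_eq_top_iff.1 (eq_top_iff.2 fun q _ => by
      refine centralizer_le_normalizer _ (mem_centralizer_iff.2 fun w hw => ?_)
      obtain ⟨j, rfl⟩ := mem_zpowers_iff.1 hw
      exact ((show Commute (π a) q from mem_centralizer_iff.1 (hz q) _ rfl).zpow_left j).eq)
    have h2 : zpowers (π a) ≤ Cfsg.pCore p (G ⧸ B) := Cores.le_pCore hn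
      ((hAp.map π).to_le (zpowers_le.2 ⟨a, haA, rfl⟩))
    rw [Cores.pCore_quotient_pCore_eq_bot] at h2
    exact mem_bot.1 (h2 (mem_zpowers _))
  have hsM : s ∈ M0 := by
    have h := hquot.mem_centralizer (s := π s) (R := R.map π) ?_ (hRp.map π)
      (le_normalizer_map π ⟨s, hsR, rfl⟩)
    · refine mem_centralizer_iff.2 fun w hw => ?_
      rw [Set.mem_singleton_iff] at hw
      subst hw
      exact mem_centralizer_iff.1 h _ ⟨a, haR, rfl⟩
    · obtain ⟨k, hk⟩ := hs2
      obtain ⟨j, -, hj⟩ := (Nat.dvd_prime_pow Nat.prime_two).1 (hk ▸ orderOf_map_dvd π s)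
      exact ⟨j, hj⟩
  have hBM : B ≤ M0 := fun b hb => mem_centralizer_iff.2 fun w _ => by
    rw [show π b = 1 from (QuotientGroup.eq_one_iff b).2 hb, mul_one, one_mul]
  have hM0bad : ¬ InvFreeOn p M0 := by
    intro h
    have h' : InvFreeOn p (⊤ : Subgroup ↥M0) := InvFreeOn.of_map M0.subtype_injective (by
      rwa [← MonoidHom.range_eq_map, Subgroup.range_subtype])
    refine hsB (mem_centralizer_iff.2 fun b hb => ?_)
    have hc := h'.mem_centralizer (s := ⟨s, hsM⟩) (R := B1.subgroupOf M0)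
      (by obtain ⟨k, hk⟩ := hs2; exact ⟨k, by rw [← hk, ← orderOf_coe]⟩)
      (hB1p.comap_subtype (K := M0)) (by rw [normalizer_eq_top (H := B1.subgroupOf M0)]; trivial)
    exact congrArg Subtype.val
      (mem_centralizer_iff.1 hc ⟨b, hBM (hB1B hb)⟩ hb)
  -- the largest proper subgroup with an inversion containing a member
  let Big : Subgroup G → Prop := fun A' =>
    IsMulCommutative A' ∧ Nat.card A' = Nat.card A ∧ ¬ A' ≤ centralizer (U : Set G)
  obtain ⟨⟨M, Q⟩, ⟨hMne, hMbad, A₁, hA₁le, hA₁⟩, hmax⟩ := Set.exists_max_image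
    {q : Subgroup G × Sylow p G | q.1 ≠ ⊤ ∧ ¬ InvFreeOn p q.1 ∧
      ∃ A' : Subgroup G, A' ≤ (q.2 : Subgroup G) ⊓ q.1 ∧ Big A'}
    (fun q => Nat.card ↥((q.2 : Subgroup G) ⊓ q.1)) (Set.toFinite _)
    ⟨(M0, P), hM0ne, hM0bad, A, le_inf hA.1 hAM0, hA.2.1, rfl, hAU⟩
  dsimp only at hMne hMbad hA₁le hmax
  obtain ⟨T, hT1, hT2⟩ := exists_sylow_inf_relIndex (U := (Q : Subgroup G) ⊓ M) (N := M)
    Q.2.to_inf_left inf_le_right
  have hTM : ¬ (T : Subgroup G) ≤ M := fun h => hMbad (descend M T hMne h)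
  set S := (T : Subgroup G) ⊓ M with hSdef
  have hA₁S : A₁ ≤ S := hA₁le.trans (le_inf hT1 inf_le_right)
  have hgrow := lt_normalizer_inf T.2 (lt_of_le_of_ne (inf_le_left : S ≤ (T : Subgroup G))
    fun h => hTM (inf_eq_left.1 h))
  have hWS : (normalizer (Cfsg.centerThompsonAOf S : Set G)) = ⊤ := by
    by_contra hne
    by_cases hW : InvFreeOn p (normalizer (Cfsg.centerThompsonAOf S : Set G))
    · exact hMbad (hsub M S hMne inf_le_right T.2.to_inf_left hT2 (hW.mono inf_le_right))
    have hNS := normalizer_le_centerThompsonAOf S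
    have h1 := (hmax (normalizer (Cfsg.centerThompsonAOf S : Set G), T) ⟨hne, hW, A₁,
      le_inf (hA₁S.trans inf_le_left) (hA₁S.trans (le_normalizer.trans hNS)), hA₁⟩).trans
      (card_le_of_le (le_inf hT1 inf_le_right))
    exact absurd h1 (not_le.2 (lt_of_lt_of_le (card_lt_card hgrow)
      (card_le_of_le (inf_le_inf_left _ hNS))))
  haveI hWSn : (Cfsg.centerThompsonAOf S).Normal := normalizer_eq_top_iff.1 hWS
  -- `W(T) ≤ W(S)`
  obtain ⟨g, hg⟩ := exists_cj_sylow T P
  have hmaxT : ∀ E : Subgroup G, E ≤ (T : Subgroup G) → IsMulCommutative E →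
      Nat.card E ≤ Nat.card A := by
    intro E hE hEc
    rw [← card_cj g E]
    exact hA.2.2 _ ((cj_mono g hE).trans hg.le) (Modules.comm_map _ hEc)
  have hA₁S' : A₁ ∈ Modules.maxAbIn S :=
    ⟨hA₁S, hA₁.1, fun E hE hEc => hA₁.2.1 ▸ hmaxT E (hE.trans inf_le_left) hEc⟩
  have hWTS : Cfsg.centerThompsonAOf (T : Subgroup G) ≤ Cfsg.centerThompsonAOf S := by
    rw [centerThompsonAOf_eq_sInf S]
    refine le_sInf fun E hE => Modules.centerThompsonAOf_le_of_mem ⟨hE.1.trans inf_le_left, hE.2.1,
      fun F hF hFc => ?_⟩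
    exact (hmaxT F hF hFc).trans (hA₁.2.1 ▸ hE.2.2 A₁ hA₁S hA₁.1)
  have hUS : U ≤ Cfsg.centerThompsonAOf S := by
    refine normalClosure_le_normal ?_
    rw [hWdef, ← hg, ← centerThompsonAOf_cj]
    exact (cj_mono g hWTS).trans (cj_eq_of_normal g _).le
  exact hA₁.2.2 fun y hy => mem_centralizer_iff.2 fun u hu =>
    Modules.comm_iff.1 hA₁.1 u ((hUS.trans (Modules.centerThompsonAOf_le_of_mem hA₁S')) hu) y hy

end Cfsg.Agent.EvenLocal
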