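import Cfsg.Agent.Stability.NaturalPair

/-!
The group generated by two quadratic elements contains an element inverting a nontrivial section.
-/

set_option autoImplicit false
set_option linter.style.haveILetI false

namespace Cfsg.Agent.EvenLocal

open Module Subgroup Cfsg.Agent.Stability
open scoped commutatorElement

variable {G : Type*} [Group G] {p : ℕ}

section

variable [Fact p.Prime] {W : Type*} [AddCommGroup W] [Module (ZMod p) W] [Finite W]

/-- The monoid generated by two quadratic unipotent maps of an irreducible module contains `-1`. -/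
theorem exists_neg_one_module (hp : p ≠ 2) (a b : Module.End (ZMod p) W) (ha : a * a = 0)
    (hb : b * b = 0)
    (hirr : ∀ U : Submodule (ZMod p) W, (∀ x ∈ U, a x ∈ U) → (∀ x ∈ U, b x ∈ U) → U = ⊥ ∨ U = ⊤)
    (hne : a ≠ 0 ∨ b ≠ 0) :
    (∃ v : W, v ≠ 0) ∧
      ∃ f ∈ Submonoid.closure ({1 + a, 1 + b} : Set (Module.End (ZMod p) W)), ∀ w, f w = -w := by
  have haa : ∀ x, a (a x) = 0 := fun x => LinearMap.congr_fun ha x
  have hbb : ∀ x, b (b x) = 0 := fun x => LinearMap.congr_fun hb x
  set c : Module.End (ZMod p) W := a * b + b * a with hc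
  have hca : c * a = a * c := by
    ext x
    simp [c, haa]
  have hcb : c * b = b * c := by
    ext x
    simp [c, hbb]
  have htop : ∀ U : Submodule (ZMod p) W, (∀ x ∈ U, a x ∈ U) → (∀ x ∈ U, b x ∈ U) →
      ∀ x ∈ U, x ≠ 0 → U = ⊤ := fun U h1 h2 x hx hx0 =>
    (hirr U h1 h2).resolve_left fun h => hx0 ((Submodule.mem_bot _).1 (h ▸ hx))
  obtain ⟨v, hv0, hav⟩ : ∃ v : W, v ≠ 0 ∧ a v = 0 := by
    have : ∃ y : W, y ≠ 0 := by
      by_contra! h
      rcases hne with h' | h' <;> apply h' <;> ext x <;> exact h _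
    obtain ⟨y, hy⟩ := this
    by_cases h : a y = 0
    · exact ⟨y, hy, h⟩
    · exact ⟨a y, h, haa y⟩
  -- `c ≠ 0`
  have hc0 : c ≠ 0 := by
    intro h0
    have hab : ∀ x, a (b x) = -b (a x) := fun x => eq_neg_of_add_eq_zero_left (by
      simpa [c] using LinearMap.congr_fun h0 x)
    have ha0 : a = 0 := by
      have := htop (LinearMap.ker a) (fun x _ => haa x)
        (fun x hx => by rw [LinearMap.mem_ker] at hx ⊢; rw [hab, hx, map_zero, neg_zero]) v hav hv0
      exact LinearMap.ker_eq_top.1 this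
    obtain ⟨y, hy, hby⟩ : ∃ y : W, y ≠ 0 ∧ b y = 0 := by
      by_cases h : b v = 0
      · exact ⟨v, hv0, h⟩
      · exact ⟨b v, h, hbb v⟩
    have hb0 : b = 0 := by
      have := htop (LinearMap.ker b)
        (fun x _ => by simp [ha0]) (fun x _ => hbb x) y hby hy
      exact LinearMap.ker_eq_top.1 this
    rcases hne with h | h <;> contradiction
  -- the field `K = 𝔽_p[c]`
  let K := ↥(Algebra.adjoin (ZMod p) ({c} : Set (Module.End (ZMod p) W)))
  letI : CommRing K := Algebra.adjoinCommRingOfComm (ZMod p) (by simp)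
  have hKc : ∀ (f : K) (g : Module.End (ZMod p) W), c * g = g * c →
      (f : Module.End (ZMod p) W) * g = g * f := by
    intro f g hg
    exact ((Algebra.commute_of_mem_adjoin_singleton_of_commute f.2 (Commute.symm hg)).symm : _)
  have hKnt : Nontrivial K := by
    refine ⟨⟨0, 1, fun h => hv0 ?_⟩⟩
    simpa using (LinearMap.congr_fun (congrArg Subtype.val h) v).symm
  have hinj : ∀ f : K, f ≠ 0 → ∀ x : W, (f : Module.End (ZMod p) W) x = 0 → x = 0 := by
    intro f hf x hx
    by_contra hx0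
    apply hf
    have h1 := hKc f a hca
    have h2 := hKc f b hcb
    have := htop (LinearMap.ker (f : Module.End (ZMod p) W))
      (fun y hy => by
        rw [LinearMap.mem_ker] at hy ⊢
        rw [← Module.End.mul_apply, h1, Module.End.mul_apply, hy, map_zero])
      (fun y hy => by
        rw [LinearMap.mem_ker] at hy ⊢
        rw [← Module.End.mul_apply, h2, Module.End.mul_apply, hy, map_zero]) x hx hx0
    exact Subtype.ext (LinearMap.ker_eq_top.1 this)
  have hnzd : NoZeroDivisors K := ⟨fun {f g} h => by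
    by_contra! hfg
    refine hv0 (hinj g hfg.2 v (hinj f hfg.1 _ ?_))
    exact LinearMap.congr_fun (congrArg Subtype.val h) v⟩
  haveI : IsDomain K := NoZeroDivisors.to_isDomain K
  haveI : Finite (Module.End (ZMod p) W) :=
    Finite.of_injective (fun f : Module.End (ZMod p) W => (f : W → W)) DFunLike.coe_injective
  haveI : Finite K := Subtype.finite
  letI : Field K := (Finite.isField_of_domain K).toField
  haveI : CharP K p := charP_of_injective_algebraMap (algebraMap (ZMod p) K).injective p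
  let c' : K := ⟨c, Algebra.self_mem_adjoin_singleton _ _⟩
  have hc' : c' ≠ 0 := fun h => hc0 (congrArg Subtype.val h)
  -- coordinates
  let T : (Fin 2 → K) → W := fun q =>
    (q 0 : Module.End (ZMod p) W) v + (q 1 : Module.End (ZMod p) W) (b v)
  have hw : a (b v) = c v := by simp [c, hav]
  have hA1 : ∀ f : K, a ((f : Module.End (ZMod p) W) v) = 0 := fun f => by
    rw [← Module.End.mul_apply, ← hKc f a hca, Module.End.mul_apply, hav, map_zero]
  have hA2 : ∀ f : K, a ((f : Module.End (ZMod p) W) (b v)) =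
      ((c' * f : K) : Module.End (ZMod p) W) v := fun f => by
    rw [← Module.End.mul_apply, ← hKc f a hca, Module.End.mul_apply, hw, mul_comm c' f]
    rfl
  have hKadd : ∀ (f g : K) (y : W), ((f + g : K) : Module.End (ZMod p) W) y =
      (f : Module.End (ZMod p) W) y + (g : Module.End (ZMod p) W) y := fun f g y => rfl
  have hKsmul : ∀ (i : ZMod p) (f : K) (y : W), ((i • f : K) : Module.End (ZMod p) W) y =
      i • (f : Module.End (ZMod p) W) y := fun i f y => rfl
  have hTinj : ∀ q, T q = 0 → q = 0 := by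
    intro q hq
    have h1 : ((c' * q 1 : K) : Module.End (ZMod p) W) v = 0 := by
      have := congrArg a hq
      simpa only [T, map_add, map_zero, hA1, hA2, zero_add] using this
    have hq1 : q 1 = 0 := by
      by_contra h
      exact hv0 (hinj _ (mul_ne_zero hc' h) v h1)
    have hq0 : q 0 = 0 := by
      by_contra h
      refine hv0 (hinj _ h v ?_)
      simpa [T, hq1] using hq
    ext i
    fin_cases i <;> simp [hq0, hq1]
  let Γ : Submonoid (SL2.S2 K) :=
    { carrier := {g | ∃ f ∈ Submonoid.closure ({1 + a, 1 + b} : Set (Module.End (ZMod p) W)),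
        ∀ q, f (T q) = T ((g : Matrix (Fin 2) (Fin 2) K).mulVec q)}
      one_mem' := ⟨1, Submonoid.one_mem _, fun q => by simp⟩
      mul_mem' := by
        rintro g h ⟨f, hf, hf'⟩ ⟨k, hk, hk'⟩
        refine ⟨f * k, Submonoid.mul_mem _ hf hk, fun q => ?_⟩
        rw [Module.End.mul_apply, hk', hf', Matrix.mulVec_mulVec]
        rfl }
  haveI : Finite (SL2.S2 K) := Subtype.finite
  let L : Subgroup (SL2.S2 K) :=
    { Γ with
      inv_mem' := fun {g} hg => by
        obtain ⟨n, hn⟩ : ∃ n : ℕ, g⁻¹ = g ^ n := ⟨orderOf g - 1, by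
          rw [eq_comm, ← mul_eq_one_iff_eq_inv, ← pow_succ,
            Nat.sub_add_cancel (orderOf_pos g), pow_orderOf_eq_one]⟩
        rw [hn]
        exact Γ.pow_mem hg n }
  have hx : SL2.upperU c' ∈ L := by
    refine ⟨1 + a, Submonoid.subset_closure (by simp), fun q => ?_⟩
    simp only [T, Matrix.mulVec, dotProduct, Fin.sum_univ_two, SL2.upperU_00, SL2.upperU_01,
      SL2.upperU_10, SL2.upperU_11, LinearMap.add_apply, Module.End.one_apply, map_add, hA1, hA2,
      one_mul, zero_mul, zero_add, hKadd]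
    abel
  have hy : SL2.lowerU (1 : K) ∈ L := by
    refine ⟨1 + b, Submonoid.subset_closure (by simp), fun q => ?_⟩
    have h1 : ∀ (f : K) (y : W), b ((f : Module.End (ZMod p) W) y) =
        (f : Module.End (ZMod p) W) (b y) :=
      fun f y => by rw [← Module.End.mul_apply, ← hKc f b hcb, Module.End.mul_apply]
    simp only [T, Matrix.mulVec, dotProduct, Fin.sum_univ_two, SL2.lowerU_00, SL2.lowerU_01,
      SL2.lowerU_10, SL2.lowerU_11, LinearMap.add_apply, Module.End.one_apply, map_add, h1, hbb,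
      map_zero, one_mul, zero_mul, add_zero, hKadd]
    abel
  have hxp : SL2.upperU c' ^ p = 1 := by rw [SL2.pow_char_eq_one_iff]; simp; norm_num
  have hyp : SL2.lowerU (1 : K) ^ p = 1 := by rw [SL2.pow_char_eq_one_iff]; simp; norm_num
  have hncomm : SL2.upperU c' * SL2.lowerU 1 ≠ SL2.lowerU 1 * SL2.upperU c' := by
    intro h
    exact hc' (by simpa using ((SL2.commute_iff _ _).1 h).1)
  obtain ⟨P, hP1, hP2⟩ := SL2.hasPair_of_not_commute (p := p) hp L hx hy hxp hyp hncomm
  refine ⟨⟨v, hv0⟩, ?_⟩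
  let w0 : SL2.S2 K := SL2.upperU 1 * SL2.lowerU (-1) * SL2.upperU 1
  have hlow : SL2.lowerU (-1 : K) = (SL2.lowerU 1)⁻¹ := eq_inv_of_mul_eq_one_left (by
    refine SL2.ext4 ?_ ?_ ?_ ?_ <;> simp only [SL2.mul_entry] <;> simp)
  have hw0 : SL2.conjBy P (w0 * w0) ∈ L := by
    simp only [w0, map_mul, hlow, map_inv]
    exact L.mul_mem (L.mul_mem (L.mul_mem hP1 (L.inv_mem hP2)) hP1)
      (L.mul_mem (L.mul_mem hP1 (L.inv_mem hP2)) hP1)
  have hneg : ((w0 * w0 : SL2.S2 K) : Matrix (Fin 2) (Fin 2) K) = -1 := by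
    ext i j
    fin_cases i <;> fin_cases j <;> simp [w0, SL2.mul_entry]
  obtain ⟨f, hf, hfT⟩ := hw0
  have hconj : ((SL2.conjBy P (w0 * w0) : SL2.S2 K) : Matrix (Fin 2) (Fin 2) K) = -1 := by
    show (P : Matrix (Fin 2) (Fin 2) K) * ((w0 * w0 : SL2.S2 K) : Matrix (Fin 2) (Fin 2) K) *
      ((P⁻¹ : GL (Fin 2) K) : Matrix (Fin 2) (Fin 2) K) = -1
    rw [hneg, mul_neg, mul_one, neg_mul, ← Units.val_mul, mul_inv_cancel, Units.val_one]
  have hTneg : ∀ q, T (-q) = -(T q) := by
    intro q
    have h := hKadd (q 0) (-(q 0)) v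
    have h' := hKadd (q 1) (-(q 1)) (b v)
    simp only [T, Pi.neg_apply]
    rw [add_neg_cancel] at h h'
    rw [eq_neg_iff_add_eq_zero]
    calc _ = ((q 0 : Module.End (ZMod p) W) v + ((-(q 0) : K) : Module.End (ZMod p) W) v) +
        ((q 1 : Module.End (ZMod p) W) (b v) + ((-(q 1) : K) : Module.End (ZMod p) W) (b v)) := by
          abel
      _ = 0 := by rw [← h, ← h']; simp
  refine ⟨f, hf, fun w => ?_⟩
  let S : Submodule (ZMod p) W := LinearMap.ker (f + 1)
  suffices hS : S = ⊤ by
    have : w ∈ S := hS ▸ Submodule.mem_top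
    rw [LinearMap.mem_ker, LinearMap.add_apply, Module.End.one_apply] at this
    exact eq_neg_of_add_eq_zero_left this
  have hT : ∀ q, T q ∈ S := by
    intro q
    rw [LinearMap.mem_ker, LinearMap.add_apply, Module.End.one_apply, hfT, hconj, Matrix.neg_mulVec,
      Matrix.one_mulVec, hTneg, neg_add_cancel]
  have hTsmul : ∀ (i : ZMod p) q, T (i • q) = i • T q := by
    intro i q
    simp only [T, Pi.smul_apply, hKsmul, smul_add]
  have hTadd : ∀ q r, T (q + r) = T q + T r := by
    intro q r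
    simp only [T, Pi.add_apply, hKadd]
    abel
  let R : Submodule (ZMod p) W :=
    { carrier := Set.range T
      add_mem' := by rintro _ _ ⟨q, rfl⟩ ⟨r, rfl⟩; exact ⟨q + r, hTadd q r⟩
      zero_mem' := ⟨0, by simp [T]⟩
      smul_mem' := by rintro i _ ⟨q, rfl⟩; exact ⟨i • q, hTsmul i q⟩ }
  have h1 : ∀ (f : K) (y : W), b ((f : Module.End (ZMod p) W) y) =
      (f : Module.End (ZMod p) W) (b y) :=
    fun f y => by rw [← Module.End.mul_apply, ← hKc f b hcb, Module.End.mul_apply]
  have hvR : v ∈ R := ⟨![1, 0], by simp [T]⟩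
  have htopR : R = ⊤ := by
    refine htop R ?_ ?_ v hvR hv0
    · rintro _ ⟨q, rfl⟩
      exact ⟨![c' * q 1, 0], by simp [T, hA1, hA2]⟩
    · rintro _ ⟨q, rfl⟩
      exact ⟨![0, q 0], by simp [T, h1, hbb]⟩
  rw [eq_top_iff, ← htopR]
  rintro _ ⟨q, rfl⟩
  exact hT q

end

theorem exists_neg_irreducible [Finite G] [Fact p.Prime] (hp : p ≠ 2) {V H : Subgroup G}
    (hV : Cfsg.IsElementaryAbelian p V) {x y : G} (hx : x ∈ H) (hy : y ∈ H)
    (hxq : ⁅⁅V, zpowers x⁆, zpowers x⁆ = ⊥) (hyq : ⁅⁅V, zpowers y⁆, zpowers y⁆ = ⊥)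
    {U V1 : Subgroup G} (hUV : U ≤ V) (hV1U : V1 ≤ U)
    (hxU : x ∈ normalizer (U : Set G)) (hyU : y ∈ normalizer (U : Set G))
    (hx1 : x ∈ normalizer (V1 : Set G)) (hy1 : y ∈ normalizer (V1 : Set G))
    (hirr : ∀ W : Subgroup G, V1 ≤ W → W ≤ U → x ∈ normalizer (W : Set G) →
      y ∈ normalizer (W : Set G) → W = V1 ∨ W = U)
    (hne : ∃ v ∈ U, x * v * x⁻¹ * v⁻¹ ∉ V1 ∨ y * v * y⁻¹ * v⁻¹ ∉ V1) :
    (∃ v ∈ U, v ∉ V1) ∧ ∃ z ∈ closure ({x, y} : Set G), ∀ v ∈ U, z * v * z⁻¹ * v ∈ V1 := by
  classical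
  have hUc : ∀ v w : U, v * w = w * v := fun v w =>
    Subtype.ext (Modules.comm_iff.1 (Modules.comm_mono hUV hV.1) v v.2 w w.2)
  let N : Subgroup U := V1.subgroupOf U
  haveI : N.Normal := ⟨fun n hn g => by rwa [hUc g n, mul_inv_cancel_right]⟩
  letI : CommGroup (↥U ⧸ N) :=
    { (inferInstance : Group (↥U ⧸ N)) with
      mul_comm := fun q r => by
        induction q using QuotientGroup.induction_on
        induction r using QuotientGroup.induction_on
        rw [← QuotientGroup.mk_mul, ← QuotientGroup.mk_mul, hUc] }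
  haveI : Finite (↥U ⧸ N) := inferInstance
  have inst : Module (ZMod p) (Additive (↥U ⧸ N)) := AddCommGroup.zmodModule fun q => by
    induction q using Additive.rec with
    | _ q =>
      induction q using QuotientGroup.induction_on with
      | _ v =>
        rw [← ofMul_pow, ← ofMul_one, ← QuotientGroup.mk_pow]
        congr 1
        rw [show v ^ p = 1 from Subtype.ext (by simpa using hV.2 v (hUV v.2))]
        rfl
  -- the action
  let L : Subgroup G := closure {x, y}
  have hLU : L ≤ normalizer (U : Set G) :=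
    (closure_le _).2 (by rintro z (rfl | rfl) <;> assumption)
  have hLH : L ≤ H := (closure_le _).2 (by rintro z (rfl | rfl) <;> assumption)
  have hL1 : L ≤ normalizer (V1 : Set G) :=
    (closure_le _).2 (by rintro z (rfl | rfl) <;> assumption)
  let cj : ∀ g ∈ L, U →* U := fun g hg =>
    { toFun := fun v => ⟨g * v * g⁻¹, (mem_normalizer_iff.1 (hLU hg) v).1 v.2⟩
      map_one' := Subtype.ext (by simp)
      map_mul' := fun v w => Subtype.ext (by simp [mul_assoc]) }
  have hcj : ∀ g (hg : g ∈ L), N ≤ N.comap (cj g hg) := by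
    intro g hg v hv
    rw [mem_comap, mem_subgroupOf]
    exact (mem_normalizer_iff.1 (hL1 hg) _).1 (mem_subgroupOf.1 hv)
  let E : ∀ g ∈ L, Module.End (ZMod p) (Additive (↥U ⧸ N)) := fun g hg =>
    AddMonoidHom.toZModLinearMap p
      (MonoidHom.toAdditive (QuotientGroup.map N N (cj g hg) (hcj g hg)))
  have hE : ∀ g (hg : g ∈ L) (v : U), E g hg (Additive.ofMul (v : (↥U ⧸ N))) =
      Additive.ofMul ((cj g hg v : U) : (↥U ⧸ N)) := fun g hg v => rfl
  have hmk : ∀ v w : U, ((v : (↥U ⧸ N)) = (w : (↥U ⧸ N))) ↔ (w : G) * (v : G)⁻¹ ∈ V1 := by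
    intro v w
    rw [QuotientGroup.eq, mem_subgroupOf, hUc, Subgroup.coe_mul, InvMemClass.coe_inv]
  have hxL : x ∈ L := subset_closure (by simp)
  have hyL : y ∈ L := subset_closure (by simp)
  let a' := E x hxL - 1
  let b' := E y hyL - 1
  have hsq : ∀ z (hz : z ∈ L), ⁅⁅V, zpowers z⁆, zpowers z⁆ = ⊥ →
      (E z hz - 1) * (E z hz - 1) = 0 := by
    intro z hz hq
    apply LinearMap.ext
    intro q
    induction q using Additive.rec with
    | _ q =>
      induction q using QuotientGroup.induction_on with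
      | _ v =>
        have hm : z * v * z⁻¹ * (v : G)⁻¹ ∈ ⁅V, zpowers z⁆ := by
          rw [commutator_comm]
          exact commutator_mem_commutator (mem_zpowers z) (hUV v.2)
        have hfix := (mem_centralizer_iff.1 (Modules.quadratic_iff.1 hq hm) z (mem_zpowers z))
        have e1 : (E z hz - 1) (Additive.ofMul (v : (↥U ⧸ N))) =
            Additive.ofMul ((cj z hz v * v⁻¹ : U) : (↥U ⧸ N)) := by
          rw [LinearMap.sub_apply, Module.End.one_apply, hE z hz, QuotientGroup.mk_mul,
            QuotientGroup.mk_inv, ofMul_mul, ofMul_inv, sub_eq_add_neg]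
        rw [Module.End.mul_apply, e1, LinearMap.sub_apply, Module.End.one_apply, hE z hz,
          LinearMap.zero_apply, sub_eq_zero]
        congr 2
        apply Subtype.ext
        show z * (z * (v : G) * z⁻¹ * (v : G)⁻¹) * z⁻¹ = z * (v : G) * z⁻¹ * (v : G)⁻¹
        rw [hfix, mul_inv_cancel_right]
  have hzero : ∀ z (hz : z ∈ L), E z hz - 1 = 0 → ∀ v ∈ U, z * v * z⁻¹ * v⁻¹ ∈ V1 := by
    intro z hz h0 v hv
    have := LinearMap.congr_fun h0 (Additive.ofMul ((⟨v, hv⟩ : U) : (↥U ⧸ N)))
    rw [LinearMap.sub_apply, Module.End.one_apply, hE z hz, LinearMap.zero_apply, sub_eq_zero] at this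
    exact (hmk ⟨v, hv⟩ (cj z hz ⟨v, hv⟩)).1 (Additive.ofMul.injective this).symm
  -- irreducibility
  have hirr' : ∀ W : Submodule (ZMod p) (Additive (↥U ⧸ N)), (∀ q ∈ W, a' q ∈ W) → (∀ q ∈ W, b' q ∈ W) →
      W = ⊥ ∨ W = ⊤ := by
    intro W hWa hWb
    let W0 : Subgroup U :=
      { carrier := {v | Additive.ofMul (v : (↥U ⧸ N)) ∈ W}
        one_mem' := W.zero_mem
        mul_mem' := fun {v w} hv hw => W.add_mem hv hw
        inv_mem' := fun {v} hv => W.neg_mem hv }
    have hWz : ∀ z (hz : z ∈ L), (∀ q ∈ W, (E z hz - 1) q ∈ W) →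
        z ∈ normalizer ((W0.map U.subtype : Subgroup G) : Set G) := by
      intro z hz hW
      apply mem_normalizer_of_conj_mem
      rintro _ ⟨v, hv, rfl⟩
      refine ⟨cj z hz v, ?_, rfl⟩
      show Additive.ofMul ((cj z hz v : U) : (↥U ⧸ N)) ∈ W
      rw [← hE z hz]
      have := W.add_mem (hW _ hv) hv
      rwa [LinearMap.sub_apply, Module.End.one_apply, sub_add_cancel] at this
    have hV1W : V1 ≤ W0.map U.subtype := by
      intro v hv
      refine ⟨⟨v, hV1U hv⟩, ?_, rfl⟩
      show Additive.ofMul ((⟨v, hV1U hv⟩ : U) : (↥U ⧸ N)) ∈ W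
      rw [(QuotientGroup.eq_one_iff _).2 (mem_subgroupOf.2 hv)]
      exact W.zero_mem
    rcases hirr _ hV1W (map_subtype_le W0) (hWz x hxL hWa) (hWz y hyL hWb) with h | h
    · left
      rw [Submodule.eq_bot_iff]
      intro q hq
      induction q using Additive.rec with
      | _ q =>
        induction q using QuotientGroup.induction_on with
        | _ v =>
          have : (v : G) ∈ W0.map U.subtype := ⟨v, hq, rfl⟩
          rw [h] at this
          rw [(QuotientGroup.eq_one_iff _).2 (mem_subgroupOf.2 this)]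
          rfl
    · right
      rw [Submodule.eq_top_iff']
      intro q
      induction q using Additive.rec with
      | _ q =>
        induction q using QuotientGroup.induction_on with
        | _ v =>
          have hv : (v : G) ∈ W0.map U.subtype := by rw [h]; exact v.2
          obtain ⟨w, hw, he⟩ := hv
          rw [Subtype.ext he] at hw
          exact hw
  have hne' : a' ≠ 0 ∨ b' ≠ 0 := by
    by_contra! h
    obtain ⟨v, hv, h' | h'⟩ := hne
    · exact h' (hzero x hxL h.1 v hv)
    · exact h' (hzero y hyL h.2 v hv)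
  obtain ⟨⟨e1, he1⟩, f, hf, hfneg⟩ :=
    exists_neg_one_module hp a' b' (hsq x hxL hxq) (hsq y hyL hyq) hirr' hne'
  -- lift to `L`
  let Γ : Submonoid (Module.End (ZMod p) (Additive (↥U ⧸ N))) :=
    { carrier := {f | ∃ g, ∃ hg : g ∈ L, f = E g hg}
      one_mem' := ⟨1, L.one_mem, LinearMap.ext fun q => by
        induction q using Additive.rec with
        | _ q =>
          induction q using QuotientGroup.induction_on with
          | _ v =>
            rw [hE 1 L.one_mem, Module.End.one_apply]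
            congr 2
            exact Subtype.ext (show (v : G) = 1 * (v : G) * 1⁻¹ by simp)⟩
      mul_mem' := by
        rintro _ _ ⟨g, hg, rfl⟩ ⟨k, hk, rfl⟩
        refine ⟨g * k, L.mul_mem hg hk, LinearMap.ext fun q => ?_⟩
        induction q using Additive.rec with
        | _ q =>
          induction q using QuotientGroup.induction_on with
          | _ v =>
            rw [Module.End.mul_apply, hE k hk, hE g hg, hE (g * k) (L.mul_mem hg hk)]
            congr 2
            exact Subtype.ext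
              (show g * (k * v * k⁻¹) * g⁻¹ = g * k * v * (g * k)⁻¹ by group) }
  have hgen : Submonoid.closure ({1 + a', 1 + b'} : Set _) ≤ Γ := by
    rw [Submonoid.closure_le]
    rintro _ (rfl | rfl)
    · exact ⟨x, hxL, by simp [a']⟩
    · exact ⟨y, hyL, by simp [b']⟩
  obtain ⟨q1, rfl⟩ := Additive.ofMul.surjective e1
  obtain ⟨a, rfl⟩ := QuotientGroup.mk_surjective q1
  refine ⟨⟨a, a.2, fun h => he1 ?_⟩, ?_⟩
  · rw [(QuotientGroup.eq_one_iff _).2 (mem_subgroupOf.2 h)]
    rfl
  obtain ⟨z, hzL, hz⟩ := hgen hf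
  refine ⟨z, hzL, fun v hv => ?_⟩
  have h := hfneg (Additive.ofMul ((⟨v, hv⟩ : U) : (↥U ⧸ N)))
  rw [hz, hE z hzL, ← ofMul_inv, ← QuotientGroup.mk_inv] at h
  have h2 := (hmk _ _).1 (Additive.ofMul.injective h).symm
  simp at h2
  exact h2

end Cfsg.Agent.EvenLocal
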