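import Cfsg.Agent.EvenLocal.Inversion.NegOne
import Cfsg.Agent.EvenLocal.ZJStability
import Cfsg.Agent.EvenLocal.Involved
import Cfsg.Agent.Stability.Action

/-!
A quadratic element outside `O_p(G / C(B))` lies in a `p`-subgroup normalized by a `2`-element that
does not centralize `B`.
-/

set_option autoImplicit false
set_option linter.style.haveILetI false

namespace Cfsg.Agent.EvenLocal

open Subgroup Fusion
open scoped commutatorElement

universe u

variable {G : Type u} [Group G] [Finite G] {p : ℕ} [Fact p.Prime]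

/-- A section of `B` on which some element of `⟨a, a ^ h⟩` is the inversion. -/
theorem exists_neg_section (hp : p ≠ 2) {B : Subgroup G} [B.Normal] (hB : IsPGroup p B) {a : G}
    (hq : ∀ β ∈ B, ⁅⁅β, a⁆, a⁆ = 1) (hna : a ∉ H4.stabCore p B) :
    ∃ (E E1 : Subgroup G) (h z : G), E ≤ B ∧ E1 ≤ E ∧ E ≤ normalizer (E1 : Set G) ∧
      (∃ v ∈ E, v ∉ E1) ∧ a ∈ normalizer (E : Set G) ⊓ normalizer (E1 : Set G) ∧
      h * a * h⁻¹ ∈ normalizer (E : Set G) ⊓ normalizer (E1 : Set G) ∧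
      z ∈ closure ({a, h * a * h⁻¹} : Set G) ∧ ∀ v ∈ E, z * v * z⁻¹ * v ∈ E1 := by
  classical
  set F := (frattini ↥B).map B.subtype with hFdef
  haveI hFn : F.Normal := PSolv.map_subtype_normal inferInstance
  set π := QuotientGroup.mk' F with hπ
  have hsurj : Function.Surjective π := QuotientGroup.mk'_surjective F
  set V := B.map π with hVdef
  haveI hVn : V.Normal := Normal.map inferInstance π hsurj
  have hV : Cfsg.IsElementaryAbelian p V := Stability.isElementaryAbelian_map_frattini hB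
  have hquad : ∀ x : G, (∀ β ∈ B, ⁅⁅β, x⁆, x⁆ = 1) →
      ⁅⁅V, zpowers (π x)⁆, zpowers (π x)⁆ = ⊥ := fun x hx =>
    Stability.quadratic_map π (commutator_zpowers_quadratic hx)
  have hnorm : ∀ (g : G ⧸ F), g ∈ normalizer (V : Set (G ⧸ F)) := fun g => by
    rw [normalizer_eq_top (H := V)]; trivial
  obtain ⟨h, hh⟩ : ∃ h : G, ¬ Stability.IsPActing p (closure {π a, π (h * a * h⁻¹)}) V := by
    by_contra hcon
    push Not at hcon
    apply hna
    set C := centralizer (V : Set (G ⧸ F)) with hC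
    set ψ : G →* (G ⧸ F) ⧸ C := (QuotientGroup.mk' C).comp π with hψ
    have hψs : Function.Surjective ψ := (QuotientGroup.mk'_surjective C).comp hsurj
    have hXp : ∀ (L : Subgroup (G ⧸ F)), Stability.IsPActing p L V →
        IsPGroup p (L.map (QuotientGroup.mk' C)) := by
      rintro L hL ⟨_, l, hl, rfl⟩
      obtain ⟨k, hk⟩ := hL l hl
      refine ⟨k, Subtype.ext ?_⟩
      show (QuotientGroup.mk' C l) ^ p ^ k = 1
      rw [← map_pow]
      exact (QuotientGroup.eq_one_iff _).2 hk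
    have hX : IsPGroup p (zpowers (ψ a)) := by
      refine (hXp _ (hcon 1)).to_le ?_
      rw [zpowers_le]
      exact ⟨π a, subset_closure (by simp), rfl⟩
    obtain ⟨N, hN, hNp, hle⟩ := Invol.baer_suzuki (zpowers (ψ a)) hX fun q => by
      obtain ⟨g, rfl⟩ := hψs q
      refine (hXp _ (hcon g)).to_le (sup_le ?_ ?_)
      · exact zpowers_le.2 ⟨π a, subset_closure (by simp), rfl⟩
      · rw [cj, MonoidHom.map_zpowers]
        exact zpowers_le.2 ⟨π (g * a * g⁻¹), subset_closure (by simp), by simp [hψ]⟩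
    refine H4.le_stabCore (hN.comap ψ) ?_ (show a ∈ N.comap ψ from hle (mem_zpowers _))
    intro d hd
    obtain ⟨k, hk⟩ := hNp ⟨ψ d, hd⟩
    replace hk : ψ d ^ p ^ k = 1 := congrArg Subtype.val hk
    rw [← map_pow] at hk
    have hc : π (d ^ p ^ k) ∈ C := (QuotientGroup.eq_one_iff _).1 hk
    obtain ⟨i, hi⟩ := Stability.exists_pow_mem_centralizer hB (t := d ^ p ^ k) (fun x hx => by
      rw [← QuotientGroup.eq_one_iff]
      show π (x⁻¹ * d ^ p ^ k * x * (d ^ p ^ k)⁻¹) = 1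
      rw [map_mul, map_mul, map_mul, map_inv, map_inv, mul_inv_eq_one, mul_assoc,
        inv_mul_eq_iff_eq_mul]
      exact (mem_centralizer_iff.1 hc _ ⟨x, hx, rfl⟩).symm)
    exact ⟨k + i, by rw [pow_add, pow_mul]; exact hi⟩
  set X := π a
  set Y := π (h * a * h⁻¹) with hY
  have hYq : ⁅⁅V, zpowers Y⁆, zpowers Y⁆ = ⊥ := hquad _ fun β hβ => by
    have h1 := hq (h⁻¹ * β * h) (by simpa using ‹B.Normal›.conj_mem β hβ h⁻¹)
    calc ⁅⁅β, h * a * h⁻¹⁆, h * a * h⁻¹⁆ = h * ⁅⁅h⁻¹ * β * h, a⁆, a⁆ * h⁻¹ := by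
          simp [commutatorElement_def, mul_assoc]
      _ = 1 := by rw [h1]; group
  -- an irreducible section
  let S : Set (Subgroup (G ⧸ F)) :=
    {U | U ≤ V ∧ X ∈ normalizer (U : Set _) ∧ Y ∈ normalizer (U : Set _) ∧
      ¬ Stability.IsPActing p (closure {X, Y}) U}
  obtain ⟨U, hU⟩ := (Set.toFinite S).exists_minimal ⟨V, le_rfl, hnorm _, hnorm _, hh⟩
  obtain ⟨hUV, hXU, hYU, hUna⟩ := hU.prop
  let S1 : Set (Subgroup (G ⧸ F)) :=
    {W | W < U ∧ X ∈ normalizer (W : Set _) ∧ Y ∈ normalizer (W : Set _)}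
  have hUne : U ≠ ⊥ := by
    rintro rfl
    exact hUna fun g _ => ⟨0, by simp [mem_centralizer_iff]⟩
  obtain ⟨V1, hV1⟩ := (Set.toFinite S1).exists_maximal
    ⟨⊥, bot_lt_iff_ne_bot.2 hUne, mem_normalizer_iff.2 (by simp), mem_normalizer_iff.2 (by simp)⟩
  obtain ⟨hlt, hX1, hY1⟩ := hV1.prop
  have hact : Stability.IsPActing p (closure {X, Y}) V1 := by
    by_contra hno
    exact hlt.not_ge (hU.2 ⟨hlt.le.trans hUV, hX1, hY1, hno⟩ hlt.le)
  obtain ⟨⟨v₀, hv₀, hv₀'⟩, z, hz, hzv⟩ := exists_neg_irreducible hp hV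
    (H := ⊤) (mem_top X) (mem_top Y) (hquad a hq) hYq hUV hlt.le hXU hYU hX1 hY1
    (fun W h1W hWU hxW hyW => by
      rcases hWU.lt_or_eq with hlt' | h
      · exact Or.inl (le_antisymm (hV1.2 ⟨hlt', hxW, hyW⟩ h1W) h1W)
      · exact Or.inr h)
    (by
      by_contra! hcon
      refine hUna (Stability.isPActing_of_series hV hUV hlt.le hact fun g hg => ?_)
      have hn1 : closure {X, Y} ≤ normalizer (V1 : Set _) :=
        (closure_le _).2 (by rintro w (rfl | rfl) <;> assumption)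
      have hnU : closure {X, Y} ≤ normalizer (U : Set _) :=
        (closure_le _).2 (by rintro w (rfl | rfl) <;> assumption)
      induction hg using closure_induction with
      | mem w hw =>
        intro v hv
        rcases hw with rfl | rfl
        · exact (hcon v hv).1
        · exact (hcon v hv).2
      | one => intro v _; simp
      | mul g k hg hk ihg ihk =>
        intro v hv
        have e : g * k * v * (g * k)⁻¹ * v⁻¹ =
            (g * (k * v * k⁻¹) * g⁻¹ * (k * v * k⁻¹)⁻¹) * (k * v * k⁻¹ * v⁻¹) := by group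
        rw [e]
        exact V1.mul_mem (ihg _ ((mem_normalizer_iff.1 (hnU hk) v).1 hv)) (ihk v hv)
      | inv g hg ihg =>
        intro v hv
        have hv' := (mem_normalizer_iff.1 (hnU ((Subgroup.closure _).inv_mem hg)) v).1 hv
        have e : g⁻¹ * v * g⁻¹⁻¹ * v⁻¹ =
            (g * (g⁻¹ * v * g⁻¹⁻¹) * g⁻¹ * (g⁻¹ * v * g⁻¹⁻¹)⁻¹)⁻¹ := by group
        rw [e]
        exact V1.inv_mem (ihg _ hv'))
  obtain ⟨z', hz', rfl⟩ : z ∈ (closure ({a, h * a * h⁻¹} : Set G)).map π := by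
    rw [MonoidHom.map_closure, Set.image_pair]; exact hz
  refine ⟨U.comap π, V1.comap π, h, z', ?_, comap_mono hlt.le, ?_, ?_, ?_, ?_, hz', ?_⟩
  · refine (comap_mono hUV).trans ?_
    rw [hVdef, comap_map_eq, QuotientGroup.ker_mk']
    exact sup_le le_rfl (map_subtype_le _)
  · refine fun g hg => le_normalizer_comap π (show π g ∈ normalizer (V1 : Set _) from ?_)
    refine mem_normalizer_iff.2 fun w => ?_
    constructor <;> intro hw
    · rwa [Modules.comm_iff.1 hV.1 _ (hUV hg) _ (hUV (hlt.le hw)), mul_inv_cancel_right]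
    · have hwU : w ∈ U := by
        simpa [mul_assoc] using U.mul_mem (U.mul_mem (U.inv_mem hg) (hlt.le hw)) hg
      rwa [Modules.comm_iff.1 hV.1 _ (hUV hg) _ (hUV hwU), mul_inv_cancel_right] at hw
  · obtain ⟨v, rfl⟩ := hsurj v₀
    exact ⟨v, hv₀, hv₀'⟩
  · exact ⟨le_normalizer_comap π hXU, le_normalizer_comap π hX1⟩
  · exact ⟨le_normalizer_comap π hYU, le_normalizer_comap π hY1⟩
  · intro v hv
    show π (z' * v * z'⁻¹ * v) ∈ V1
    rw [map_mul, map_mul, map_mul, map_inv]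
    exact hzv (π v) hv

/-- A `p`-subgroup containing `a` normalized by a `2`-element that does not centralize `B`. -/
theorem exists_normalized_inverter (hp : p ≠ 2) {B : Subgroup G} [B.Normal] (hB : IsPGroup p B)
    {a : G} {e : ℕ} (hap : a ^ p ^ e = 1) (hq : ∀ β ∈ B, ⁅⁅β, a⁆, a⁆ = 1)
    (hna : a ∉ H4.stabCore p B) :
    ∃ (R : Subgroup G) (s : G), IsPGroup p R ∧ a ∈ R ∧ s ∈ normalizer (R : Set G) ∧
      (∃ k, orderOf s = 2 ^ k) ∧ s ∉ centralizer (B : Set G) := by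
  classical
  obtain ⟨E, E1, h, z, hEB, hE1E, hEE1, ⟨v₀, hv₀, hv₀'⟩, haN, hyN, hz, hzv⟩ :=
    exists_neg_section hp hB hq hna
  set H0 := closure ({a, h * a * h⁻¹} : Set G) with hH0
  have hH0N : H0 ≤ normalizer (E : Set G) ⊓ normalizer (E1 : Set G) :=
    (closure_le _).2 (by rintro w (rfl | rfl) <;> assumption)
  have hcE : ∀ g ∈ H0, ∀ v ∈ E, g * v * g⁻¹ ∈ E :=
    fun g hg v hv => (mem_normalizer_iff.1 (hH0N hg).1 v).1 hv
  have hcE1 : ∀ g ∈ H0, ∀ v ∈ E1, g * v * g⁻¹ ∈ E1 :=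
    fun g hg v hv => (mem_normalizer_iff.1 (hH0N hg).2 v).1 hv
  -- the kernel on `E / E1`
  let K : Subgroup ↥H0 :=
    { carrier := {k | ∀ v ∈ E, (k : G) * v * (k : G)⁻¹ * v⁻¹ ∈ E1}
      one_mem' := fun v _ => by simp
      mul_mem' := fun {k l} hk hl v hv => by
        have e : ((k * l : ↥H0) : G) * v * ((k * l : ↥H0) : G)⁻¹ * v⁻¹ =
            ((k : G) * ((l : G) * v * (l : G)⁻¹) * (k : G)⁻¹ * ((l : G) * v * (l : G)⁻¹)⁻¹) *
              ((l : G) * v * (l : G)⁻¹ * v⁻¹) := by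
          simp [mul_assoc]
        rw [e]
        exact E1.mul_mem (hk _ (hcE _ l.2 v hv)) (hl v hv)
      inv_mem' := fun {k} hk v hv => by
        have e : ((k⁻¹ : ↥H0) : G) * v * ((k⁻¹ : ↥H0) : G)⁻¹ * v⁻¹ =
            ((k : G) * ((k : G)⁻¹ * v * k) * (k : G)⁻¹ * ((k : G)⁻¹ * v * k)⁻¹)⁻¹ := by
          simp [mul_assoc]
        rw [e]
        exact E1.inv_mem (hk _ (by simpa using hcE _ (inv_mem k.2) v hv)) }
  have hKn : K.Normal := by
    refine ⟨fun k hk g v hv => ?_⟩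
    have h1 := hcE1 _ g.2 _ (hk ((g : G)⁻¹ * v * g) (by simpa using hcE _ (inv_mem g.2) v hv))
    simpa [mul_assoc] using h1
  set π := QuotientGroup.mk' K with hπ
  set aH : ↥H0 := ⟨a, subset_closure (by simp)⟩ with haH
  set zH : ↥H0 := ⟨z, hz⟩ with hzH
  have hz2 : π zH * π zH = 1 := by
    rw [← map_mul]
    refine (QuotientGroup.eq_one_iff _).2 fun v hv => ?_
    have h1 := hzv v hv
    have h2 := hzv _ (hcE z hz v hv)
    -- `z (z v z⁻¹) z⁻¹ ≡ (z v z⁻¹)⁻¹ ≡ v`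
    show z * z * v * (z * z)⁻¹ * v⁻¹ ∈ E1
    have e : z * z * v * (z * z)⁻¹ * v⁻¹ = (z * (z * v * z⁻¹) * z⁻¹ * (z * v * z⁻¹)) *
        ((z * v * z⁻¹)⁻¹ * (z * v * z⁻¹ * v)⁻¹ * (z * v * z⁻¹)) := by group
    rw [e]
    refine E1.mul_mem h2 ?_
    simpa using (mem_normalizer_iff.1 (hEE1 (E.inv_mem (hcE z hz v hv))) _).1 (E1.inv_mem h1)
  have hzne : π zH ≠ 1 := by
    intro h0
    apply hv₀'
    have h1 : z * v₀ * z⁻¹ * v₀⁻¹ ∈ E1 := (QuotientGroup.eq_one_iff _).1 h0 v₀ hv₀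
    have h2 := hzv v₀ hv₀
    have h3 : v₀ ^ 2 ∈ E1 := by
      have e : v₀ ^ 2 = v₀ * ((z * v₀ * z⁻¹ * v₀⁻¹)⁻¹ * (z * v₀ * z⁻¹ * v₀)) * v₀⁻¹ := by
        simp [sq, mul_assoc]
      rw [e]
      exact (mem_normalizer_iff.1 (hEE1 hv₀) _).1 (E1.mul_mem (E1.inv_mem h1) h2)
    obtain ⟨j, hj⟩ := hB ⟨v₀, hEB hv₀⟩
    have hodd : Odd (p ^ j) := ((Fact.out : p.Prime).odd_of_ne_two hp).pow
    obtain ⟨m, hm⟩ := hodd
    have hj' : v₀ ^ p ^ j = 1 := congrArg Subtype.val hj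
    rw [hm, pow_succ, pow_mul, mul_eq_one_iff_eq_inv] at hj'
    have h4 := E1.pow_mem h3 m
    rw [hj'] at h4
    simpa using h4
  have hzc : π zH * π aH = π aH * π zH := by
    rw [← mul_inv_eq_one, mul_inv_rev, ← map_inv, ← map_inv, ← map_mul, ← map_mul, ← map_mul]
    refine (QuotientGroup.eq_one_iff _).2 fun v hv => ?_
    show (z * a * (z⁻¹ * a⁻¹)) * v * (z * a * (z⁻¹ * a⁻¹))⁻¹ * v⁻¹ ∈ E1
    have haH0 : a ∈ H0 := subset_closure (by simp)
    set w := a⁻¹ * v * a with hw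
    have hwE : w ∈ E := by simpa [hw] using hcE _ (inv_mem haH0) v hv
    set w' := z⁻¹ * w * z with hw'
    have hw'E : w' ∈ E := by simpa [hw'] using hcE _ (inv_mem hz) w hwE
    -- `w w' ∈ E1`
    have h1 : w * w' ∈ E1 := by simpa [hw', mul_assoc] using hzv w' hw'E
    have h2 : v * (a * w' * a⁻¹) ∈ E1 := by simpa [hw, mul_assoc] using hcE1 _ haH0 _ h1
    set u := a * w' * a⁻¹ with hu
    have huE : u ∈ E := hcE _ haH0 _ hw'E
    -- `z u z⁻¹ ≡ u⁻¹ ≡ v`
    have h3 := hzv u huE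
    have e : (z * a * (z⁻¹ * a⁻¹)) * v * (z * a * (z⁻¹ * a⁻¹))⁻¹ * v⁻¹ =
        (z * u * z⁻¹ * u) * (v * u)⁻¹ := by
      simp [hu, hw', hw, mul_assoc]
    rw [e]
    exact E1.mul_mem h3 (E1.inv_mem h2)
  -- Frattini
  set R0 := (zpowers (π aH)).comap π with hR0
  have hap' : IsPGroup p (zpowers aH) := by
    rintro ⟨w, hw⟩
    obtain ⟨j, rfl⟩ := mem_zpowers_iff.1 hw
    refine ⟨e, Subtype.ext ?_⟩
    show (aH ^ j) ^ p ^ e = 1
    rw [← zpow_natCast (aH ^ j), ← zpow_mul, mul_comm, zpow_mul, zpow_natCast,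
      show aH ^ p ^ e = 1 from Subtype.ext hap, one_zpow]
  obtain ⟨R, hR, hRT⟩ := exists_sylow_inf_relIndex hap'
    (zpowers_le.2 (show π aH ∈ zpowers (π aH) from mem_zpowers _) : zpowers aH ≤ R0)
  have hRp : IsPGroup p ↥((R : Subgroup ↥H0) ⊓ R0) := R.2.to_inf_left
  have hzR0 : cj zH R0 = R0 := by
    refine cj_eq_of_mem (le_normalizer_comap π ?_)
    refine centralizer_le_normalizer _ (mem_centralizer_iff.2 fun g hg => ?_)
    obtain ⟨i, rfl⟩ := mem_zpowers_iff.1 hg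
    exact ((Commute.zpow_left (show Commute (π aH) (π zH) from hzc.symm) i)).eq
  obtain ⟨r, hr, hrR⟩ := exists_conj_of_relIndex (isPGroup_cj hRp zH) hRp
    ((cj_mono zH inf_le_right).trans hzR0.le) inf_le_right (by
      conv => enter [1, 2, 2]; rw [← hzR0]
      rw [relIndex_map_map_of_injective _ _ (MulAut.conj zH).injective]
      exact hRT) hRT
  set n := r * zH with hn
  have hnR : n ∈ normalizer (((R : Subgroup ↥H0) ⊓ R0 : Subgroup ↥H0) : Set ↥H0) := by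
    rw [← cj_eq_iff_mem_normalizer, hn, ← cj_cj, hrR]
  obtain ⟨i, hi⟩ := mem_zpowers_iff.1 (show π r ∈ zpowers (π aH) from hr)
  obtain ⟨m, hm, k, hk⟩ := exists_odd_mul_two_pow n
  have hsn : π (n ^ m) ≠ 1 := by
    intro h0
    rw [map_pow, hn, map_mul, ← hi, ((show Commute (π aH) (π zH) from hzc.symm).zpow_left i).mul_pow]
      at h0
    have hae : ((π aH ^ i) ^ m) ^ p ^ e = 1 := by
      rw [← pow_mul, mul_comm, pow_mul, ← zpow_natCast (π aH ^ i), ← zpow_mul, mul_comm, zpow_mul,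
        zpow_natCast, ← map_pow, show aH ^ p ^ e = 1 from Subtype.ext hap, map_one, one_zpow,
        one_pow]
    have h1 : ((π zH) ^ m) ^ p ^ e = 1 := by
      rw [← inv_eq_of_mul_eq_one_right h0, inv_pow, hae, inv_one]
    rw [← pow_mul] at h1
    obtain ⟨q, hq'⟩ := hm.mul (((Fact.out : p.Prime).odd_of_ne_two hp).pow (n := e))
    rw [hq', pow_succ, pow_mul, sq, hz2, one_pow, one_mul] at h1
    exact hzne h1
  refine ⟨((R : Subgroup ↥H0) ⊓ R0).map H0.subtype, ((n ^ m : ↥H0) : G), hRp.map _, ?_, ?_, ?_, ?_⟩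
  · exact ⟨aH, ⟨hR (mem_zpowers _), mem_zpowers _⟩, rfl⟩
  · exact le_normalizer_map H0.subtype ⟨_, pow_mem hnR m, rfl⟩
  · exact ⟨k, by rw [orderOf_coe]; exact hk⟩
  · intro hc
    refine hsn ((QuotientGroup.eq_one_iff _).2 fun v hv => ?_)
    rw [← mem_centralizer_iff.1 hc v (hEB hv), mul_inv_cancel_right, mul_inv_cancel]
    exact one_mem _

end Cfsg.Agent.EvenLocal
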